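import Cfsg.Agent.Lib.Helper57.OE.Defs
import Cfsg.Agent.Lib.Helper94.QuadWrap

set_option autoImplicit false

/-! # An idempotent whose adjoint is its complement forces plus type -/

namespace Cfsg.Agent.Lib.Helper15.OE

open Cfsg Cfsg.Geo Matrix Cfsg.Agent.Lib.Helper13.Asch Cfsg.Agent.Lib.Helper90.Sp
  Cfsg.Agent.Lib.Helper57.OE
open scoped Kronecker MatrixGroups

variable {ι : Type} [Fintype ι] [DecidableEq ι] {F : Type*} [Field F] {Q : (ι → F) → F}

/-- the singular vectors of a totally isotropic subspace in characteristic 2 -/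
def singPart (Q : (ι → F) → F) (hQ : IsNondegenerateQuadraticForm Q) (U : Submodule F (ι → F))
    (hU : ∀ u ∈ U, ∀ v ∈ U, QuadraticMap.polar Q u v = 0) : Submodule F (ι → F) where
  carrier := {u | u ∈ U ∧ Q u = 0}
  add_mem' := by
    rintro a b ⟨ha, ha0⟩ ⟨hb, hb0⟩
    refine ⟨U.add_mem ha hb, ?_⟩
    have h := hU a ha b hb
    rw [QuadraticMap.polar, ha0, hb0] at h
    simpa using h
  zero_mem' := by
    refine ⟨U.zero_mem, ?_⟩
    have h := hQ.smul 0 0
    simpa using h
  smul_mem' := by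
    rintro c a ⟨ha, ha0⟩
    exact ⟨U.smul_mem c ha, by rw [hQ.smul, ha0, mul_zero]⟩

theorem finrank_le_one_of_singPart [Fintype F] (h2 : (2 : F) = 0)
    (hQ : IsNondegenerateQuadraticForm Q) (U : Submodule F (ι → F))
    (hU : ∀ u ∈ U, ∀ v ∈ U, QuadraticMap.polar Q u v = 0) (h0 : singPart Q hQ U hU = ⊥) :
    Module.finrank F U ≤ 1 := by
  classical
  have hchar : ringChar F = 2 := by
    have : CharP F 2 := CharTwo.of_one_ne_zero_of_two_eq_zero one_ne_zero h2
    exact ringChar.eq F 2
  by_cases hall : ∀ u ∈ U, Q u = 0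
  · have : U = ⊥ := by
      rw [eq_bot_iff, ← h0]
      intro u hu
      exact ⟨hu, hall u hu⟩
    rw [this]
    simp
  · push Not at hall
    obtain ⟨u2, hu2, hq2⟩ := hall
    refine finrank_le_one (⟨u2, hu2⟩ : U) ?_
    rintro ⟨u1, hu1⟩
    obtain ⟨c, hc⟩ := Cfsg.Agent.Lib.Helper94.exists_sq_of_charTwo hchar (Q u1 / Q u2)
    have hmem : u1 + c • u2 ∈ singPart Q hQ U hU := by
      refine ⟨U.add_mem hu1 (U.smul_mem c hu2), ?_⟩
      have h := hU u1 hu1 (c • u2) (U.smul_mem c hu2)
      rw [QuadraticMap.polar, hQ.smul, hc, div_mul_cancel₀ _ hq2] at h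
      have h' : Q (u1 + c • u2) = 2 * Q u1 := by linear_combination h
      rw [h', h2, zero_mul]
    rw [h0, Submodule.mem_bot] at hmem
    refine ⟨c, ?_⟩
    apply Subtype.ext
    show c • u2 = u1
    have h3 : u1 = -(c • u2) := eq_neg_of_add_eq_zero_left hmem
    have h4 : (c • u2) + (c • u2) = 0 := by
      rw [← two_smul F (c • u2), h2, zero_smul]
    rw [h3]
    exact eq_neg_of_add_eq_zero_left h4

theorem plus_of_isotropic_idempotent [Fintype F] (hQ : IsNondegenerateQuadraticForm Q)
    (hι : 2 < Fintype.card ι) {H : Subgroup (GL ι F)} (hH : FixesQuadForm (matrixSet H) Q)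
    (hirr : ActsIrreducibly (matrixSet H)) (e : Matrix ι ι F) (hidem : e * e = e)
    (hadj : ∀ u v, QuadraticMap.polar Q (e *ᵥ u) v = QuadraticMap.polar Q u ((1 - e) *ᵥ v))
    (hperm : ∀ h ∈ H, (h : Matrix ι ι F) * e * ((h⁻¹ : GL ι F) : Matrix ι ι F) = e ∨
      (h : Matrix ι ι F) * e * ((h⁻¹ : GL ι F) : Matrix ι ι F) = 1 - e) :
    IsPlusTypeOn Q ⊤ := by
  classical
  set B := Cfsg.Agent.Lib.Helper94.pB (Cfsg.Agent.Lib.Helper94.quadOf Q hQ) with hB
  have hBnd : B.Nondegenerate := Cfsg.Agent.Lib.Helper94.pB_quadOf_nondegenerate Q hQ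
  have hBap : ∀ x y, B x y = QuadraticMap.polar Q x y := fun x y => rfl
  have hBrefl : B.IsRefl := by
    intro x y h
    rw [hBap] at h ⊢
    rw [QuadraticMap.polar_comm]; exact h
  have hpz : ∀ v, QuadraticMap.polar Q 0 v = 0 := by
    intro v
    have := hQ.polar_bilinear.smul_left 0 0 v
    simpa using this
  have hpz' : ∀ v, QuadraticMap.polar Q v 0 = 0 := by
    intro v
    have := hQ.polar_bilinear.smul_right 0 v 0
    simpa using this
  -- the two eigenspaces
  set U : Submodule F (ι → F) := LinearMap.ker (Matrix.toLin' (1 - e)) with hUdef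
  set U' : Submodule F (ι → F) := LinearMap.ker (Matrix.toLin' e) with hU'def
  have memU : ∀ u, u ∈ U ↔ e *ᵥ u = u := by
    intro u
    rw [hUdef, LinearMap.mem_ker, Matrix.toLin'_apply, Matrix.sub_mulVec, Matrix.one_mulVec,
      sub_eq_zero, eq_comm]
  have memU' : ∀ u, u ∈ U' ↔ e *ᵥ u = 0 := by
    intro u
    rw [hU'def, LinearMap.mem_ker, Matrix.toLin'_apply]
  have isoU : ∀ u ∈ U, ∀ v ∈ U, QuadraticMap.polar Q u v = 0 := by
    intro u hu v hv
    rw [← (memU u).1 hu, hadj, Matrix.sub_mulVec, Matrix.one_mulVec, (memU v).1 hv, sub_self, hpz']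
  have isoU' : ∀ u ∈ U', ∀ v ∈ U', QuadraticMap.polar Q u v = 0 := by
    intro u hu v hv
    have h1 : (1 - e) *ᵥ v = v := by
      rw [Matrix.sub_mulVec, Matrix.one_mulVec, (memU' v).1 hv, sub_zero]
    rw [← h1, ← hadj, (memU' u).1 hu, hpz]
  have hcompl : IsCompl U U' := by
    constructor
    · rw [Submodule.disjoint_def]
      intro x hx hx'
      rw [← (memU x).1 hx, (memU' x).1 hx']
    · rw [codisjoint_iff, eq_top_iff]
      intro x _
      have hx : x = e *ᵥ x + (1 - e) *ᵥ x := by
        rw [Matrix.sub_mulVec, Matrix.one_mulVec]; abel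
      rw [hx]
      refine Submodule.add_mem_sup ?_ ?_
      · rw [memU, Matrix.mulVec_mulVec, hidem]
      · rw [memU', Matrix.mulVec_mulVec, mul_sub, mul_one, hidem, sub_self, Matrix.zero_mulVec]
  have hsum := Submodule.finrank_add_eq_of_isCompl hcompl
  have hle1 : U ≤ B.orthogonal U := by
    intro u hu
    rw [LinearMap.BilinForm.mem_orthogonal_iff]
    intro v hv
    exact isoU v hv u hu
  have hle2 : U' ≤ B.orthogonal U' := by
    intro u hu
    rw [LinearMap.BilinForm.mem_orthogonal_iff]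
    intro v hv
    exact isoU' v hv u hu
  have hf1 := LinearMap.BilinForm.finrank_orthogonal hBnd U
  have hf2 := LinearMap.BilinForm.finrank_orthogonal hBnd U'
  have hl1 := Submodule.finrank_mono hle1
  have hl2 := Submodule.finrank_mono hle2
  have hn : Module.finrank F (ι → F) = Fintype.card ι := Module.finrank_fintype_fun_eq_card F
  have hhalf : 2 * Module.finrank F U = Module.finrank F (ι → F) := by omega
  have hhalf' : 2 * Module.finrank F U' = Module.finrank F (ι → F) := by omega
  refine ⟨U, le_top, ?_, by rw [finrank_top]; exact hhalf⟩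
  by_cases h2 : (2 : F) = 0
  · -- characteristic 2
    set U0 := singPart Q hQ U isoU with hU0
    set U0' := singPart Q hQ U' isoU' with hU0'
    have hinv : ∀ s ∈ matrixSet H, (U0 ⊔ U0').map (Matrix.toLin' s) ≤ U0 ⊔ U0' := by
      rintro s ⟨h, hh, rfl⟩
      have hcancel : ((h⁻¹ : GL ι F) : Matrix ι ι F) * (h : Matrix ι ι F) = 1 := by
        rw [← Units.val_mul, inv_mul_cancel, Units.val_one]
      have hfix : ∀ v, Q ((h : Matrix ι ι F) *ᵥ v) = Q v := hH _ ⟨h, hh, rfl⟩
      have key : ∀ (M : Matrix ι ι F),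
          (h : Matrix ι ι F) * e * ((h⁻¹ : GL ι F) : Matrix ι ι F) = M → ∀ v,
          M *ᵥ ((h : Matrix ι ι F) *ᵥ v) = (h : Matrix ι ι F) *ᵥ (e *ᵥ v) := by
        intro M hM v
        rw [← hM, Matrix.mulVec_mulVec, Matrix.mul_assoc, hcancel, Matrix.mul_one,
          Matrix.mulVec_mulVec]
      rw [Submodule.map_sup]
      rcases hperm h hh with hc | hc
      · refine sup_le_sup ?_ ?_
        · rintro _ ⟨x, ⟨hx, hx0⟩, rfl⟩
          refine ⟨?_, ?_⟩
          · rw [memU, Matrix.toLin'_apply, key e hc, (memU x).1 hx]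
          · rw [Matrix.toLin'_apply, hfix, hx0]
        · rintro _ ⟨x, ⟨hx, hx0⟩, rfl⟩
          refine ⟨?_, ?_⟩
          · rw [memU', Matrix.toLin'_apply, key e hc, (memU' x).1 hx, Matrix.mulVec_zero]
          · rw [Matrix.toLin'_apply, hfix, hx0]
      · rw [sup_comm]
        refine sup_le_sup ?_ ?_
        · rintro _ ⟨x, ⟨hx, hx0⟩, rfl⟩
          refine ⟨?_, ?_⟩
          · have := key (1 - e) hc x
            rw [(memU' x).1 hx, Matrix.mulVec_zero, Matrix.sub_mulVec, Matrix.one_mulVec,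
              sub_eq_zero] at this
            rw [memU, Matrix.toLin'_apply]
            exact this.symm
          · rw [Matrix.toLin'_apply, hfix, hx0]
        · rintro _ ⟨x, ⟨hx, hx0⟩, rfl⟩
          refine ⟨?_, ?_⟩
          · have := key (1 - e) hc x
            rw [(memU x).1 hx, Matrix.sub_mulVec, Matrix.one_mulVec, sub_eq_self] at this
            rw [memU', Matrix.toLin'_apply]
            exact this
          · rw [Matrix.toLin'_apply, hfix, hx0]
    rcases hirr _ hinv with hbot | htop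
    · exfalso
      rw [sup_eq_bot_iff] at hbot
      have h1 := finrank_le_one_of_singPart h2 hQ U isoU hbot.1
      omega
    · intro u hu
      have hmem : u ∈ U0 ⊔ U0' := by rw [htop]; trivial
      obtain ⟨a, ha, b, hb, hab⟩ := Submodule.mem_sup.1 hmem
      have h1 : e *ᵥ u = a := by
        rw [← hab, Matrix.mulVec_add, (memU a).1 ha.1, (memU' b).1 hb.1, add_zero]
      rw [(memU u).1 hu] at h1
      rw [h1]; exact ha.2
  · intro u hu
    have h := isoU u hu u hu
    rw [QuadraticMap.polar, ← two_smul F u, hQ.smul] at h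
    have h' : 2 * Q u = 0 := by linear_combination h
    exact (mul_eq_zero.1 h').resolve_left h2

end Cfsg.Agent.Lib.Helper15.OE
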