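import Cfsg.Agent.Lib.Helper12.OE.ZCG1
import Cfsg.Agent.Lib.Helper12.OE.ZCG3
import Cfsg.Agent.Lib.Helper57.OE.Base

set_option autoImplicit false
set_option linter.unusedSectionVars false

/-! # No proper subspace is stable under all long root maps -/

namespace Cfsg.Agent.Lib.Helper15.OE

open Cfsg Cfsg.Geo Matrix Cfsg.Agent.Lib.Helper13.Asch Cfsg.Agent.Lib.Helper90.Sp
  Cfsg.Agent.Lib.Helper57.OE Cfsg.Agent.Lib.Helper90.OE
open scoped Kronecker MatrixGroups

variable {ι : Type} [Fintype ι] [DecidableEq ι] {F : Type*} [Field F] {Q : (ι → F) → F}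

theorem polar_zero_left' (hQ : IsNondegenerateQuadraticForm Q) (x : ι → F) :
    QuadraticMap.polar Q 0 x = 0 := by
  have := hQ.polar_bilinear.smul_left 0 0 x
  simpa using this

/-- step A -/
theorem mem_of_singular_perp (hQ : IsNondegenerateQuadraticForm Q) (W : Submodule F (ι → F))
    (hW : ∀ u v, TSPair Q u v → ∀ x ∈ W, rootMap Q u v x ∈ W) {u w v : ι → F} (hw : w ∈ W)
    (hu : Q u = 0) (hc : QuadraticMap.polar Q u w ≠ 0) (hv : Q v = 0)
    (huv : QuadraticMap.polar Q u v = 0) (hwv : QuadraticMap.polar Q v w = 0) : v ∈ W := by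
  have hb := hQ.polar_bilinear
  by_cases hv0 : v = 0
  · rw [hv0]; exact W.zero_mem
  have hTS : TSPair Q u v := by
    refine ⟨hu, hv, huv, ?_⟩
    rw [LinearIndependent.pair_iff]
    intro a b hab
    have e1 : QuadraticMap.polar Q (a • u + b • v) w = a * QuadraticMap.polar Q u w := by
      rw [hb.add_left, hb.smul_left, hb.smul_left, hwv]; ring
    rw [hab, polar_zero_left' hQ] at e1
    have ha : a = 0 := (mul_eq_zero.1 e1.symm).resolve_right hc
    rw [ha, zero_smul, zero_add] at hab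
    exact ⟨ha, (smul_eq_zero.1 hab).resolve_right hv0⟩
  have h1 := hW u v hTS w hw
  rw [rootMap, hwv, zero_smul, add_zero] at h1
  have h2 : QuadraticMap.polar Q u w • v ∈ W := by
    have := W.sub_mem hw h1
    rwa [sub_sub_cancel] at this
  exact (W.smul_mem_iff hc).1 h2

theorem perp_mem [Fintype F] (hQ : IsNondegenerateQuadraticForm Q) (hι : 5 ≤ Fintype.card ι)
    (W : Submodule F (ι → F)) (hW : ∀ u v, TSPair Q u v → ∀ x ∈ W, rootMap Q u v x ∈ W)
    {e f w : ι → F} (h : HypPair Q e f) (hw : w ∈ W) (hc : QuadraticMap.polar Q e w ≠ 0)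
    (hspan : ∀ v, Perp2 Q e f v → QuadraticMap.polar Q v w = 0) (y : ι → F)
    (hy : Perp2 Q e f y) : y ∈ W :=
  Cfsg.Agent.Lib.Helper12.OE.mem_of_singular_mem hQ hι h W
    (fun v hv hp => mem_of_singular_perp hQ W hW hw h.qe hc hv hp.1 (hspan v hp)) y hy

theorem irr_root [Fintype F] (hQ : IsNondegenerateQuadraticForm Q) (hι : 7 ≤ Fintype.card ι)
    (W : Submodule F (ι → F)) (hW : ∀ u v, TSPair Q u v → ∀ x ∈ W, rootMap Q u v x ∈ W) :
    W = ⊥ ∨ W = ⊤ := by
  have hb := hQ.polar_bilinear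
  have hsymm : ∀ a b, QuadraticMap.polar Q a b = QuadraticMap.polar Q b a :=
    fun a b => QuadraticMap.polar_comm Q a b
  by_cases hbot : W = ⊥
  · exact Or.inl hbot
  right
  obtain ⟨w, hw, hw0⟩ := Submodule.exists_mem_ne_zero_of_ne_bot hbot
  obtain ⟨u, hu, hc⟩ := Cfsg.Agent.Lib.Helper12.OE.exists_singular_not_perp hQ (by omega) hw0
  set c := QuadraticMap.polar Q u w with hcdef
  have huu : QuadraticMap.polar Q u u = 0 := by rw [← two_mul_Q hQ, hu, mul_zero]
  set f : ι → F := c⁻¹ • w + (-(c⁻¹ ^ 2 * Q w)) • u with hf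
  have hH : HypPair Q u f := by
    refine ⟨hu, ?_, ?_⟩
    · rw [hf, Q_add Q, hQ.smul, hQ.smul, hu, hb.smul_left, hb.smul_right, hsymm w u, ← hcdef]
      field_simp
      ring
    · rw [hf, hb.add_right, hb.smul_right, hb.smul_right, huu, ← hcdef, inv_mul_cancel₀ hc]
      ring
  have hwf : w = c • f + (c⁻¹ * Q w) • u := by
    rw [hf, smul_add, smul_smul, smul_smul, mul_inv_cancel₀ hc, one_smul, add_assoc, ← add_smul]
    have : c * -(c⁻¹ ^ 2 * Q w) + c⁻¹ * Q w = 0 := by field_simp; ring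
    rw [this, zero_smul, add_zero]
  have hperp1 : ∀ y, Perp2 Q u f y → y ∈ W := by
    refine perp_mem hQ (by omega) W hW hH hw hc ?_
    intro v hv
    rw [hwf, hb.add_right, hb.smul_right, hb.smul_right, hsymm v f, hsymm v u, hv.1, hv.2]
    ring
  obtain ⟨e', f', hH', he', hf'⟩ := Cfsg.Agent.Lib.Helper12.OE.exists_hyp1 hQ (by omega) hH
  have hf'W : f' ∈ W := hperp1 f' hf'
  have hperp2 : ∀ y, Perp2 Q e' f' y → y ∈ W := by
    refine perp_mem hQ (by omega) W hW hH' hf'W (by rw [hH'.pef]; exact one_ne_zero) ?_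
    intro v hv
    rw [hsymm v f', hv.2]
  have huW : u ∈ W := hperp2 u ⟨by rw [hsymm, he'.1], by rw [hsymm, hf'.1]⟩
  have hfW : f ∈ W := hperp2 f ⟨by rw [hsymm, he'.2], by rw [hsymm, hf'.2]⟩
  have hff : QuadraticMap.polar Q f f = 0 := by rw [← two_mul_Q hQ, hH.qf, mul_zero]
  rw [eq_top_iff]
  intro x _
  have hx : x = (x + (-(QuadraticMap.polar Q f x)) • u + (-(QuadraticMap.polar Q u x)) • f) +
      (QuadraticMap.polar Q f x • u + QuadraticMap.polar Q u x • f) := by
    simp only [neg_smul]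
    abel
  rw [hx]
  refine W.add_mem (hperp1 _ ⟨?_, ?_⟩) (W.add_mem (W.smul_mem _ huW) (W.smul_mem _ hfW))
  · rw [hb.add_right, hb.add_right, hb.smul_right, hb.smul_right, huu, hH.pef]
    ring
  · rw [hb.add_right, hb.add_right, hb.smul_right, hb.smul_right, hff, hsymm f u, hH.pef]
    ring

end Cfsg.Agent.Lib.Helper15.OE
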