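import Cfsg.Agent.Lib.Helper15.OE.ZC1

set_option autoImplicit false
set_option linter.unusedSectionVars false

/-! # A matrix commuting with all long root maps is scalar -/

namespace Cfsg.Agent.Lib.Helper15.OE

open Cfsg Cfsg.Geo Matrix Cfsg.Agent.Lib.Helper13.Asch Cfsg.Agent.Lib.Helper90.Sp
  Cfsg.Agent.Lib.Helper57.OE Cfsg.Agent.Lib.Helper90.OE
open scoped Kronecker MatrixGroups

variable {ι : Type} [Fintype ι] [DecidableEq ι] {F : Type*} [Field F] {Q : (ι → F) → F}

/-- a vector orthogonal to `u` pairing to `1` with `v`, for independent `u, v` -/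
theorem exists_dual_pair (hQ : IsNondegenerateQuadraticForm Q) {u v : ι → F}
    (h : LinearIndependent F ![u, v]) :
    ∃ x, QuadraticMap.polar Q u x = 0 ∧ QuadraticMap.polar Q v x = 1 := by
  have hb := hQ.polar_bilinear
  rw [LinearIndependent.pair_iff] at h
  by_contra hcon
  have hker : ∀ x, QuadraticMap.polar Q u x = 0 → QuadraticMap.polar Q v x = 0 := by
    intro x hx
    by_contra hv
    apply hcon
    refine ⟨(QuadraticMap.polar Q v x)⁻¹ • x, ?_, ?_⟩
    · rw [hb.smul_right, hx, mul_zero]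
    · rw [hb.smul_right, inv_mul_cancel₀ hv]
  have hu0 : u ≠ 0 := by
    intro h0
    have := h 1 0 (by rw [h0]; simp)
    exact one_ne_zero this.1
  obtain ⟨-, ⟨x₀, hx₀⟩⟩ := hQ.nondegenerate u hu0
  set l := QuadraticMap.polar Q v x₀ / QuadraticMap.polar Q u x₀ with hl
  have hall : ∀ x, QuadraticMap.polar Q (v + (-l) • u) x = 0 := by
    intro x
    have h1 := hker (x + (-(QuadraticMap.polar Q u x / QuadraticMap.polar Q u x₀)) • x₀) (by
      rw [hb.add_right, hb.smul_right]
      field_simp
      ring)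
    rw [hb.add_right, hb.smul_right] at h1
    rw [hb.add_left, hb.smul_left, hl]
    field_simp
    field_simp at h1
    linear_combination h1
  have hz : v + (-l) • u = 0 := by
    by_contra hne
    obtain ⟨-, ⟨x, hx⟩⟩ := hQ.nondegenerate _ hne
    exact hx (hall x)
  have := h (-l) 1 (by rw [one_smul, add_comm]; exact hz)
  exact one_ne_zero this.2

theorem rootMap_smul (hQ : IsNondegenerateQuadraticForm Q) (u v x : ι → F) (c : F) :
    rootMap Q u v (c • x) = c • rootMap Q u v x := by
  have hb := hQ.polar_bilinear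
  unfold rootMap
  rw [hb.smul_right, hb.smul_right, smul_sub, smul_add, smul_smul, smul_smul]

/-- `X u` lies in the span of `u, v` -/
theorem mulVec_mem_pair (hQ : IsNondegenerateQuadraticForm Q) (X : Matrix ι ι F)
    (hX : ∀ u v, TSPair Q u v → ∀ x, X *ᵥ rootMap Q u v x = rootMap Q u v (X *ᵥ x))
    {u v : ι → F} (h : TSPair Q u v) : ∃ a b : F, X *ᵥ u = a • u + b • v := by
  obtain ⟨x, hux, hvx⟩ := exists_dual_pair hQ h.indep
  have h1 := hX u v h x
  unfold rootMap at h1
  rw [hux, hvx, one_smul, zero_smul, sub_zero, Matrix.mulVec_add] at h1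
  refine ⟨QuadraticMap.polar Q v (X *ᵥ x), -QuadraticMap.polar Q u (X *ᵥ x), ?_⟩
  have h2 : X *ᵥ u = QuadraticMap.polar Q v (X *ᵥ x) • u - QuadraticMap.polar Q u (X *ᵥ x) • v := by
    have := congrArg (fun z => z - X *ᵥ x) h1
    simp only [add_sub_cancel_left] at this
    rw [this]
    abel
  rw [h2, neg_smul, sub_eq_add_neg]

theorem scalar_of_commute_root [Fintype F] (hQ : IsNondegenerateQuadraticForm Q)
    (hι : 7 ≤ Fintype.card ι) (X : Matrix ι ι F)
    (hX : ∀ u v, TSPair Q u v → ∀ x, X *ᵥ rootMap Q u v x = rootMap Q u v (X *ᵥ x)) :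
    ∃ c : F, X = c • 1 := by
  obtain ⟨u, f, hH⟩ := Cfsg.Agent.Lib.Helper12.OE.exists_hyp0 hQ (by omega)
  have hu0 : u ≠ 0 := by
    intro h0
    have := hH.pef
    rw [h0, polar_zero_left' hQ] at this
    exact zero_ne_one this
  obtain ⟨v, w, huv, huw, -, hind⟩ := Cfsg.Agent.Lib.Helper12.OE.exists_ts_triple hQ hι hu0 hH.qe
  obtain ⟨a, b, hab⟩ := mulVec_mem_pair hQ X hX huv
  obtain ⟨a', b', hab'⟩ := mulVec_mem_pair hQ X hX huw
  have hb0 : b = 0 := by
    rw [Fintype.linearIndependent_iff] at hind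
    have h1 : ∑ i, ![a - a', b, -b'] i • ![u, v, w] i = 0 := by
      rw [Fin.sum_univ_three]
      simp only [Matrix.cons_val_zero, Matrix.cons_val_one, Matrix.cons_val]
      have : a • u + b • v = a' • u + b' • w := hab.symm.trans hab'
      rw [sub_smul, neg_smul]
      have h3 := sub_eq_zero.2 this
      rw [← h3]
      abel
    exact hind _ h1 1
  rw [hb0, zero_smul, add_zero] at hab
  set E : Submodule F (ι → F) := LinearMap.ker (Matrix.toLin' X - a • LinearMap.id) with hE
  have memE : ∀ x, x ∈ E ↔ X *ᵥ x = a • x := by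
    intro x
    rw [hE, LinearMap.mem_ker, LinearMap.sub_apply, Matrix.toLin'_apply, LinearMap.smul_apply,
      LinearMap.id_apply, sub_eq_zero]
  have hEtop : E = ⊤ := by
    rcases irr_root hQ hι E (by
      intro u' v' h' x hx
      rw [memE] at hx ⊢
      rw [hX u' v' h', hx, rootMap_smul hQ]) with h | h
    · exfalso
      have : u ∈ E := (memE u).2 hab
      rw [h, Submodule.mem_bot] at this
      exact hu0 this
    · exact h
  refine ⟨a, ?_⟩
  apply Matrix.toLin'.injective
  apply LinearMap.ext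
  intro x
  have : x ∈ E := by rw [hEtop]; trivial
  rw [Matrix.toLin'_apply, (memE x).1 this, Matrix.toLin'_apply, Matrix.smul_mulVec,
    Matrix.one_mulVec]

end Cfsg.Agent.Lib.Helper15.OE
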