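import Cfsg.Agent.Lib.Helper90.OE.Defs
import Cfsg.Agent.Lib.Helper57.OE.Base

set_option autoImplicit false

/-! # Orthogonal isometric decompositions with at least four blocks, characteristic 2 -/

namespace Cfsg.Agent.Lib.Helper15.OE

open Cfsg Cfsg.Geo Matrix Cfsg.Agent.Lib.Helper13.Asch Cfsg.Agent.Lib.Helper90.Sp
  Cfsg.Agent.Lib.Helper57.OE Cfsg.Agent.Lib.Helper90.OE
open scoped Kronecker MatrixGroups

variable {ι : Type} [Fintype ι] [DecidableEq ι] {F : Type*} [Field F] {Q : (ι → F) → F}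

theorem not_rootIn_decomp_even [Fintype F] (hQ : IsNondegenerateQuadraticForm Q)
    (h2 : (2 : F) = 0) {t m : ℕ} (ht : 4 ≤ t) (D : Fin t → Submodule F (ι → F))
    (hD : IsOrthogonalMDecomposition Q m D) : ¬ RootIn Q (decompositionStabilizer D) := by
  intro hR
  have hb := hQ.polar_bilinear
  have hsymm : ∀ a b, QuadraticMap.polar Q a b = QuadraticMap.polar Q b a :=
    fun a b => QuadraticMap.polar_comm Q a b
  have orth : ∀ {i j : Fin t}, i ≠ j → ∀ {a b : ι → F}, a ∈ D i → b ∈ D j →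
      QuadraticMap.polar Q a b = 0 := fun hij _ _ ha hb' => hD.decomp.orthogonal _ _ hij _ ha _ hb'
  let i0 : Fin t := ⟨0, by omega⟩
  let i1 : Fin t := ⟨1, by omega⟩
  let i2 : Fin t := ⟨2, by omega⟩
  let i3 : Fin t := ⟨3, by omega⟩
  have n01 : i0 ≠ i1 := by simp [i0, i1, Fin.ext_iff]
  have n02 : i0 ≠ i2 := by simp [i0, i2, Fin.ext_iff]
  have n03 : i0 ≠ i3 := by simp [i0, i3, Fin.ext_iff]
  have n12 : i1 ≠ i2 := by simp [i1, i2, Fin.ext_iff]
  have n13 : i1 ≠ i3 := by simp [i1, i3, Fin.ext_iff]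
  have n23 : i2 ≠ i3 := by simp [i2, i3, Fin.ext_iff]
  -- a pair in the first block
  have hne : D i0 ≠ ⊥ := by
    intro h
    have h1 := hD.decomp.decomp.finrank_eq i0
    rw [h, finrank_bot] at h1
    exact absurd h1.symm hD.decomp.decomp.pos.ne'
  obtain ⟨u₀, hu₀, hu₀0⟩ := Submodule.exists_mem_ne_zero_of_ne_bot hne
  obtain ⟨-, ⟨y', hy', hc⟩⟩ := hD.decomp.nondegenerate i0 u₀ hu₀ hu₀0
  set y₀ : ι → F := (QuadraticMap.polar Q u₀ y')⁻¹ • y' with hy₀def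
  have hy₀ : y₀ ∈ D i0 := (D i0).smul_mem _ hy'
  have huy : QuadraticMap.polar Q u₀ y₀ = 1 := by
    rw [hy₀def, hb.smul_right, inv_mul_cancel₀ hc]
  -- transport to the other blocks
  have transport : ∀ j : Fin t, ∃ u y : ι → F, u ∈ D j ∧ y ∈ D j ∧ Q u = Q u₀ ∧ Q y = Q y₀ ∧
      QuadraticMap.polar Q u y = 1 := by
    intro j
    obtain ⟨e, he⟩ := hD.isometric i0 j
    refine ⟨e ⟨u₀, hu₀⟩, e ⟨y₀, hy₀⟩, (e _).2, (e _).2, he _, he _, ?_⟩
    have h := he (⟨u₀, hu₀⟩ + ⟨y₀, hy₀⟩)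
    rw [map_add] at h
    have h' : Q ((e ⟨u₀, hu₀⟩ : ι → F) + (e ⟨y₀, hy₀⟩ : ι → F)) = Q (u₀ + y₀) := h
    unfold QuadraticMap.polar at huy ⊢
    rw [h', he, he]
    exact huy
  obtain ⟨u₁, y₁, hu₁, hy₁, qu₁, qy₁, p₁⟩ := transport i1
  obtain ⟨u₂, y₂, hu₂, hy₂, qu₂, qy₂, p₂⟩ := transport i2
  obtain ⟨u₃, y₃, hu₃, hy₃, qu₃, qy₃, p₃⟩ := transport i3
  set u : ι → F := u₀ + u₁ + u₂ + u₃ with hu
  set v : ι → F := y₀ + y₁ with hv
  have huu₀ : QuadraticMap.polar Q u₀ u₀ = 0 := by rw [← two_mul_Q hQ, h2, zero_mul]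
  have hQu : Q u = 0 := by
    rw [hu, Q_add Q, Q_add Q, Q_add Q, hb.add_left, hb.add_left, hb.add_left, orth n01 hu₀ hu₁,
      orth n02 hu₀ hu₂, orth n12 hu₁ hu₂, orth n03 hu₀ hu₃, orth n13 hu₁ hu₃, orth n23 hu₂ hu₃,
      qu₁, qu₂, qu₃]
    linear_combination (2 * Q u₀) * h2
  have hQv : Q v = 0 := by
    rw [hv, Q_add Q, orth n01 hy₀ hy₁, qy₁]
    linear_combination (Q y₀) * h2
  have hpuv : QuadraticMap.polar Q u v = 0 := by
    rw [hu, hv]
    simp only [hb.add_left, hb.add_right]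
    rw [huy, p₁, orth n01 hu₀ hy₁, orth n01.symm hu₁ hy₀, orth n02.symm hu₂ hy₀,
      orth n12.symm hu₂ hy₁, orth n03.symm hu₃ hy₀, orth n13.symm hu₃ hy₁]
    linear_combination h2
  have hvu₀ : QuadraticMap.polar Q v u₀ = 1 := by
    rw [hv, hb.add_left, hsymm y₀ u₀, huy, orth n01.symm hy₁ hu₀, add_zero]
  have huu : QuadraticMap.polar Q u u₀ = 0 := by
    rw [hu]
    simp only [hb.add_left]
    rw [huu₀, orth n01.symm hu₁ hu₀, orth n02.symm hu₂ hu₀, orth n03.symm hu₃ hu₀]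
    simp
  have huy₂ : QuadraticMap.polar Q u y₂ = 1 := by
    rw [hu]
    simp only [hb.add_left]
    rw [p₂, orth n02 hu₀ hy₂, orth n12 hu₁ hy₂, orth n23.symm hu₃ hy₂]
    simp
  have huy₁ : QuadraticMap.polar Q u y₁ = 1 := by
    rw [hu]
    simp only [hb.add_left]
    rw [p₁, orth n01 hu₀ hy₁, orth n12.symm hu₂ hy₁, orth n13.symm hu₃ hy₁]
    simp
  have hvy₂ : QuadraticMap.polar Q v y₂ = 0 := by
    rw [hv, hb.add_left, orth n02 hy₀ hy₂, orth n12 hy₁ hy₂, add_zero]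
  have hTS : TSPair Q u v := by
    refine ⟨hQu, hQv, hpuv, ?_⟩
    rw [LinearIndependent.pair_iff]
    intro a b hab
    have e1 : QuadraticMap.polar Q (a • u + b • v) y₂ = a := by
      rw [hb.add_left, hb.smul_left, hb.smul_left, huy₂, hvy₂]; ring
    have e2 : QuadraticMap.polar Q (a • u + b • v) u₀ = b := by
      rw [hb.add_left, hb.smul_left, hb.smul_left, huu, hvu₀]; ring
    have hz : ∀ x, QuadraticMap.polar Q 0 x = 0 := by
      intro x
      have := hb.smul_left 0 0 x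
      simpa using this
    rw [hab, hz] at e1 e2
    exact ⟨e1.symm, e2.symm⟩
  obtain ⟨g, ⟨σ, hσ⟩, hg⟩ := hR u v hTS
  have hz : u₀ + u ∈ D (σ i0) := by
    rw [← hσ i0]
    refine ⟨u₀, hu₀, ?_⟩
    rw [Matrix.toLin'_apply, hg, rootMap, hvu₀, huu, one_smul, zero_smul, sub_zero]
  have hz1 : QuadraticMap.polar Q (u₀ + u) y₁ = 1 := by
    rw [hb.add_left, huy₁, orth n01 hu₀ hy₁, zero_add]
  have hz2 : QuadraticMap.polar Q (u₀ + u) y₂ = 1 := by
    rw [hb.add_left, huy₂, orth n02 hu₀ hy₂, zero_add]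
  have hj1 : σ i0 = i1 := by
    by_contra h
    rw [orth h hz hy₁] at hz1
    exact zero_ne_one hz1
  have hj2 : σ i0 = i2 := by
    by_contra h
    rw [orth h hz hy₂] at hz2
    exact zero_ne_one hz2
  exact n12 (hj1.symm.trans hj2)

end Cfsg.Agent.Lib.Helper15.OE
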