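import Cfsg.Agent.Lib.Helper90.OE.Defs
import Cfsg.Agent.Lib.Helper57.OE.Base

set_option autoImplicit false

/-! # In characteristic 2 a non-degenerate subspace is not a line -/

namespace Cfsg.Agent.Lib.Helper15.OE

open Cfsg Cfsg.Geo Matrix Cfsg.Agent.Lib.Helper13.Asch Cfsg.Agent.Lib.Helper90.Sp
  Cfsg.Agent.Lib.Helper57.OE Cfsg.Agent.Lib.Helper90.OE
open scoped Kronecker MatrixGroups

variable {ι : Type} [Fintype ι] [DecidableEq ι] {F : Type*} [Field F] {Q : (ι → F) → F}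

theorem two_le_of_nondegenerateOn (hQ : IsNondegenerateQuadraticForm Q) (h2 : (2 : F) = 0)
    (W : Submodule F (ι → F)) (hW : IsNondegenerateOn (QuadraticMap.polar Q) W) :
    Module.finrank F W ≠ 1 := by
  intro h1
  obtain ⟨⟨w, hwW⟩, hw0, hw⟩ := finrank_eq_one_iff'.1 h1
  have hw0' : w ≠ 0 := fun h => hw0 (Subtype.ext h)
  obtain ⟨⟨x, hxW, hx⟩, -⟩ := hW w hwW hw0'
  obtain ⟨c, hc⟩ := hw ⟨x, hxW⟩
  have hc' : c • w = x := congrArg Subtype.val hc
  apply hx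
  rw [← hc', hQ.polar_bilinear.smul_left, ← two_mul_Q hQ, h2, zero_mul, mul_zero]

end Cfsg.Agent.Lib.Helper15.OE
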